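import Cfsg.Prelude.Def_LieExceptional
import Cfsg.Agent.H1.Words

/-!
Basic theory of (B,N)-pairs: Weyl group, Bruhat cells, the exchange condition and parabolic subgroups.
-/

set_option autoImplicit false

namespace Cfsg.Agent.H1

open Cfsg

variable {G : Type*} [Group G] (P : BNPair G)

instance bnTorusNormal : ((P.B ⊓ P.N).subgroupOf P.N).Normal where
  conj_mem := by
    intro t ht n
    rw [Subgroup.mem_subgroupOf] at ht ⊢
    exact ⟨P.conj_mem n n.2 t ht, (n * t * n⁻¹).2⟩

/-- The Weyl group. -/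
abbrev Weyl : Type _ := P.N ⧸ (P.B ⊓ P.N).subgroupOf P.N

/-- The distinguished involutions of the Weyl group. -/
def sref (s : P.S) : Weyl P := QuotientGroup.mk (⟨(s : G), P.subset s.2⟩ : P.N)

/-- The Bruhat cell of an element of the Weyl group. -/
def cell (w : Weyl P) : Set G :=
  {g | ∃ n : P.N, (n : Weyl P) = w ∧ ∃ b ∈ P.B, ∃ b' ∈ P.B, g = b * n * b'}

variable {P}

theorem weyl_mk_eq_iff {n n' : P.N} : (n : Weyl P) = n' ↔ (n : G)⁻¹ * n' ∈ P.B := by
  rw [QuotientGroup.eq, Subgroup.mem_subgroupOf]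
  exact ⟨fun h => h.1, fun h => ⟨h, (n⁻¹ * n').2⟩⟩

theorem weyl_mk_eq_one_iff {n : P.N} : (n : Weyl P) = 1 ↔ (n : G) ∈ P.B := by
  rw [QuotientGroup.eq_one_iff, Subgroup.mem_subgroupOf]
  exact ⟨fun h => h.1, fun h => ⟨h, n.2⟩⟩

theorem mem_cell_mk {n : P.N} {g : G} :
    g ∈ cell P (n : Weyl P) ↔ ∃ b ∈ P.B, ∃ b' ∈ P.B, g = b * n * b' := by
  constructor
  · rintro ⟨n', hn', b, hb, b', hb', rfl⟩
    rw [eq_comm, weyl_mk_eq_iff] at hn'
    exact ⟨b, hb, _, P.B.mul_mem hn' hb', by group⟩
  · rintro ⟨b, hb, b', hb', rfl⟩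
    exact ⟨n, rfl, b, hb, b', hb', rfl⟩

theorem cell_mk_eq (n : P.N) :
    cell P (n : Weyl P) = DoubleCoset.doubleCoset (n : G) (P.B : Set G) P.B := by
  ext g
  rw [mem_cell_mk, DoubleCoset.mem_doubleCoset]
  rfl

theorem self_mem_cell (n : P.N) : (n : G) ∈ cell P (n : Weyl P) :=
  mem_cell_mk.2 ⟨1, P.B.one_mem, 1, P.B.one_mem, by simp⟩

theorem sref_mem_cell (s : P.S) : (s : G) ∈ cell P (sref P s) :=
  self_mem_cell (⟨(s : G), P.subset s.2⟩ : P.N)

theorem cell_nonempty (w : Weyl P) : ∃ g, g ∈ cell P w := by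
  induction w using QuotientGroup.induction_on with
  | H n => exact ⟨n, self_mem_cell n⟩

theorem mul_mem_cell_left {w : Weyl P} {b g : G} (hb : b ∈ P.B) (hg : g ∈ cell P w) :
    b * g ∈ cell P w := by
  obtain ⟨n, hn, b₁, hb₁, b₂, hb₂, rfl⟩ := hg
  exact ⟨n, hn, b * b₁, P.B.mul_mem hb hb₁, b₂, hb₂, by group⟩

theorem mul_mem_cell_right {w : Weyl P} {b g : G} (hg : g ∈ cell P w) (hb : b ∈ P.B) :
    g * b ∈ cell P w := by
  obtain ⟨n, hn, b₁, hb₁, b₂, hb₂, rfl⟩ := hg
  exact ⟨n, hn, b₁, hb₁, b₂ * b, P.B.mul_mem hb₂ hb, by group⟩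

theorem inv_mem_cell {w : Weyl P} {g : G} (hg : g ∈ cell P w) : g⁻¹ ∈ cell P w⁻¹ := by
  obtain ⟨n, hn, b₁, hb₁, b₂, hb₂, rfl⟩ := hg
  refine ⟨n⁻¹, by rw [← hn]; rfl, b₂⁻¹, P.B.inv_mem hb₂, b₁⁻¹, P.B.inv_mem hb₁, ?_⟩
  simp only [Subgroup.coe_inv]
  group

theorem mem_cell_one {g : G} : g ∈ cell P 1 ↔ g ∈ P.B := by
  have : (1 : Weyl P) = ((1 : P.N) : Weyl P) := rfl
  rw [this, mem_cell_mk]
  constructor
  · rintro ⟨b, hb, b', hb', rfl⟩
    simpa using P.B.mul_mem hb hb'
  · intro hg
    exact ⟨g, hg, 1, P.B.one_mem, by simp⟩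

theorem cell_rel {w : Weyl P} {g g' : G} (hg : g ∈ cell P w) (hg' : g' ∈ cell P w) :
    ∃ b ∈ P.B, ∃ b' ∈ P.B, g' = b * g * b' := by
  induction w using QuotientGroup.induction_on with
  | H n =>
    obtain ⟨b₁, hb₁, b₂, hb₂, rfl⟩ := mem_cell_mk.1 hg
    obtain ⟨b₃, hb₃, b₄, hb₄, rfl⟩ := mem_cell_mk.1 hg'
    exact ⟨b₃ * b₁⁻¹, P.B.mul_mem hb₃ (P.B.inv_mem hb₁), b₂⁻¹ * b₄,
      P.B.mul_mem (P.B.inv_mem hb₂) hb₄, by group⟩

theorem cell_subset_of_mem {w w' : Weyl P} {g g' : G} (hg : g ∈ cell P w) (hgw : g ∈ cell P w')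
    (hg' : g' ∈ cell P w) : g' ∈ cell P w' := by
  obtain ⟨b, hb, b', hb', rfl⟩ := cell_rel hg hg'
  exact mul_mem_cell_right (mul_mem_cell_left hb hgw) hb'

theorem cell_subset_subgroup {w : Weyl P} {M : Subgroup G} (hM : P.B ≤ M) {g g' : G}
    (hg : g ∈ cell P w) (hgM : g ∈ M) (hg' : g' ∈ cell P w) : g' ∈ M := by
  obtain ⟨b, hb, b', hb', rfl⟩ := cell_rel hg hg'
  exact M.mul_mem (M.mul_mem (hM hb) hgM) (hM hb')

theorem sref_sq (s : P.S) : sref P s * sref P s = 1 := by
  unfold sref
  rw [← QuotientGroup.mk_mul, weyl_mk_eq_one_iff]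
  exact P.sq_mem s s.2

theorem sref_inv (s : P.S) : (sref P s)⁻¹ = sref P s :=
  inv_eq_of_mul_eq_one_right (sref_sq s)

theorem sref_injective : Function.Injective (sref P) := by
  intro s t h
  unfold sref at h
  rw [weyl_mk_eq_iff] at h
  exact Subtype.ext (P.inj s s.2 t t.2 h)

theorem mul_mem_cell_or (s : P.S) {w : Weyl P} {x g : G} (hx : x ∈ cell P (sref P s))
    (hg : g ∈ cell P w) : x * g ∈ cell P (sref P s * w) ∨ x * g ∈ cell P w := by
  induction w using QuotientGroup.induction_on with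
  | H n =>
    obtain ⟨b₁, hb₁, b₂, hb₂, rfl⟩ := mem_cell_mk.1 hx
    obtain ⟨b₃, hb₃, b₄, hb₄, rfl⟩ := mem_cell_mk.1 hg
    have h := P.mul_mem_union s s.2 n n.2 (b₂ * b₃) (P.B.mul_mem hb₂ hb₃)
    have e : b₁ * (s : G) * b₂ * (b₃ * n * b₄) = b₁ * ((s : G) * (b₂ * b₃) * n) * b₄ := by group
    show b₁ * (s : G) * b₂ * (b₃ * n * b₄) ∈ _ ∨ b₁ * (s : G) * b₂ * (b₃ * n * b₄) ∈ _
    rw [e]
    rcases h with h | h
    · left
      apply mul_mem_cell_right (mul_mem_cell_left hb₁ _) hb₄
      unfold sref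
      rw [← QuotientGroup.mk_mul, cell_mk_eq]
      exact h
    · right
      apply mul_mem_cell_right (mul_mem_cell_left hb₁ _) hb₄
      rw [cell_mk_eq]
      exact h

theorem mul_mem_cell_or' (s : P.S) {w : Weyl P} {x g : G} (hg : g ∈ cell P w)
    (hx : x ∈ cell P (sref P s)) : g * x ∈ cell P (w * sref P s) ∨ g * x ∈ cell P w := by
  have hx' := inv_mem_cell hx
  rw [sref_inv] at hx'
  rcases mul_mem_cell_or s hx' (inv_mem_cell hg) with h | h
  · left
    have := inv_mem_cell h
    simpa [sref_inv] using this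
  · right
    have := inv_mem_cell h
    simpa using this

theorem exists_conj_not_mem (s : P.S) : ∃ b ∈ P.B, (s : G) * b * s ∉ P.B := by
  by_contra hcon
  push Not at hcon
  apply P.conj_ne s s.2
  apply Set.Subset.antisymm
  · rintro _ ⟨b, hb, rfl⟩
    exact hcon b hb
  · intro b hb
    have hs := P.B.inv_mem (P.sq_mem s s.2)
    refine ⟨((s : G) * s)⁻¹ * ((s : G) * b * s) * ((s : G) * s)⁻¹,
      P.B.mul_mem (P.B.mul_mem hs (hcon b hb)) hs, ?_⟩
    simp only
    group

theorem sref_not_mem (s : P.S) : (s : G) ∉ P.B := by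
  intro hs
  obtain ⟨b, hb, h⟩ := exists_conj_not_mem s
  exact h (P.B.mul_mem (P.B.mul_mem hs hb) hs)

theorem sref_ne_one (s : P.S) : sref P s ≠ 1 := by
  intro h
  unfold sref at h
  rw [weyl_mk_eq_one_iff] at h
  exact sref_not_mem s h

theorem exists_conj_mem_cell (s : P.S) : ∃ b ∈ P.B, (s : G) * b * s ∈ cell P (sref P s) := by
  obtain ⟨b, hb, h⟩ := exists_conj_not_mem s
  refine ⟨b, hb, ?_⟩
  rcases mul_mem_cell_or s (mul_mem_cell_right (sref_mem_cell s) hb) (sref_mem_cell s) with h' | h'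
  · rw [sref_sq, mem_cell_one] at h'
    exact absurd h' h
  · exact h'

theorem wprod_reverse_sref (l : List P.S) :
    wprod (sref P) l.reverse = (wprod (sref P) l)⁻¹ := by
  induction l with
  | nil => simp
  | cons i l ih => simp [ih, sref_inv]

/-- Elements of `N` whose image is a product of letters from `J`. -/
def wordSubgroup (P : BNPair G) (J : Set G) : Subgroup G where
  carrier := {g | ∃ h : g ∈ P.N, ∃ l : List P.S, (∀ s ∈ l, (s : G) ∈ J) ∧
    wprod (sref P) l = ((⟨g, h⟩ : P.N) : Weyl P)}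
  one_mem' := ⟨P.N.one_mem, [], by simp, rfl⟩
  mul_mem' := by
    rintro a b ⟨ha, l, hl, hla⟩ ⟨hb, l', hl', hlb⟩
    refine ⟨P.N.mul_mem ha hb, l ++ l', ?_, ?_⟩
    · intro s hs
      rcases List.mem_append.1 hs with h | h
      exacts [hl s h, hl' s h]
    · rw [wprod_append, hla, hlb]; rfl
  inv_mem' := by
    rintro a ⟨ha, l, hl, hla⟩
    refine ⟨P.N.inv_mem ha, l.reverse, ?_, ?_⟩
    · intro s hs
      exact hl s (List.mem_reverse.1 hs)
    · rw [wprod_reverse_sref, hla]; rfl

theorem closure_le_wordSubgroup {J : Set G} (hJ : J ⊆ P.S) :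
    Subgroup.closure J ≤ wordSubgroup P J := by
  rw [Subgroup.closure_le]
  intro s hs
  refine ⟨P.subset (hJ hs), [⟨s, hJ hs⟩], by simpa using hs, ?_⟩
  simp [sref]

theorem invol_gen : InvolGen (sref P) where
  sq := sref_sq
  gen := by
    intro w
    induction w using QuotientGroup.induction_on with
    | H n =>
      have h : P.N ≤ wordSubgroup P P.S := by
        conv_lhs => rw [← P.closure_sup]
        refine sup_le (closure_le_wordSubgroup subset_rfl) ?_
        intro t ht
        refine ⟨ht.2, [], by simp, ?_⟩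
        rw [wprod_nil, eq_comm, weyl_mk_eq_one_iff]
        exact ht.1
      obtain ⟨_, l, _, hl⟩ := h n.2
      exact ⟨l, hl⟩

/-- Uniqueness in the Bruhat decomposition. -/
theorem eq_of_mem_cell {w w' : Weyl P} {g : G} (hw : g ∈ cell P w) (hw' : g ∈ cell P w') :
    w = w' := by
  induction hk : len (sref P) w' generalizing w w' g with
  | zero =>
    have h1 := invol_gen.eq_one_of_len hk
    subst h1
    induction w using QuotientGroup.induction_on with
    | H n =>
      rw [weyl_mk_eq_one_iff, ← mem_cell_one]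
      exact cell_subset_of_mem hw hw' (self_mem_cell n)
  | succ k ih =>
    obtain ⟨s, w'', rfl, hlen⟩ := invol_gen.exists_cons_of_len_pos (w := w') (by omega)
    induction w'' using QuotientGroup.induction_on with
    | H n =>
      have h1 : (s : G) * n ∈ cell P (sref P s * n) :=
        self_mem_cell ((⟨(s : G), P.subset s.2⟩ : P.N) * n)
      have h2 : (s : G) * n ∈ cell P w := cell_subset_of_mem hw' hw h1
      have h3 : (s : G)⁻¹ ∈ cell P (sref P s) := by
        have := inv_mem_cell (sref_mem_cell s)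
        rwa [sref_inv] at this
      have h4 := mul_mem_cell_or s h3 h2
      rw [inv_mul_cancel_left] at h4
      rcases h4 with h4 | h4
      · have := ih h4 (self_mem_cell n) (by omega)
        rw [← this, invol_gen.cancel_left]
      · have h5 := ih h4 (self_mem_cell n) (by omega)
        subst h5
        have h6 := ih hw' hw (by omega)
        rw [h6] at hlen
        omega

theorem mul_mem_cell_of_le (s : P.S) {w : Weyl P} {x g : G}
    (hlen : len (sref P) w ≤ len (sref P) (sref P s * w)) (hx : x ∈ cell P (sref P s))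
    (hg : g ∈ cell P w) : x * g ∈ cell P (sref P s * w) := by
  induction hk : len (sref P) w generalizing w x g with
  | zero =>
    have h1 := invol_gen.eq_one_of_len hk
    subst h1
    rw [mul_one]
    exact mul_mem_cell_right hx (mem_cell_one.1 hg)
  | succ k ih =>
    obtain ⟨t, w', rfl, hlen'⟩ := invol_gen.exists_concat_of_len_pos (w := w) (by omega)
    rcases mul_mem_cell_or s hx hg with h | h
    · exact h
    exfalso
    induction w' using QuotientGroup.induction_on with
    | H n =>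
      have h1 : (n : G) * t ∈ cell P ((n : Weyl P) * sref P t) :=
        self_mem_cell (n * (⟨(t : G), P.subset t.2⟩ : P.N))
      obtain ⟨b, hb, b', hb', rfl⟩ := cell_rel h1 hg
      have h2 : x * b * n * t ∈ cell P ((n : Weyl P) * sref P t) := by
        have := mul_mem_cell_right h (P.B.inv_mem hb')
        convert this using 1
        group
      have h3 : (t : G)⁻¹ ∈ cell P (sref P t) := by
        have := inv_mem_cell (sref_mem_cell t)
        rwa [sref_inv] at this
      have h4 := mul_mem_cell_or' t h2 h3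
      rw [mul_inv_cancel_right, invol_gen.cancel_right] at h4
      have h5 : x * b * n ∈ cell P (sref P s * n) := by
        apply ih _ (mul_mem_cell_right hx hb) (self_mem_cell n) (by omega)
        have := invol_gen.len_mul_simple_le t (sref P s * n)
        rw [mul_assoc] at this
        omega
      rcases h4 with h4 | h4
      · have := eq_of_mem_cell h5 h4
        apply sref_ne_one s
        simpa using this
      · have h6 := eq_of_mem_cell h5 h4
        rw [← h6, invol_gen.cancel_left] at hlen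
        rw [← h6] at hlen'
        omega

theorem exists_mul_mem_cell_of_le (s : P.S) {w : Weyl P} {g : G}
    (hlen : len (sref P) (sref P s * w) ≤ len (sref P) w) (hg : g ∈ cell P w) :
    ∃ b ∈ P.B, (s : G) * b * g ∈ cell P w := by
  induction w using QuotientGroup.induction_on with
  | H n =>
    obtain ⟨b₁, hb₁, b₂, hb₂, rfl⟩ := mem_cell_mk.1 hg
    obtain ⟨b₀, hb₀, h₀⟩ := exists_conj_mem_cell s
    have h1 : (s : G)⁻¹ * n ∈ cell P (sref P s * n) := by
      have := self_mem_cell ((⟨(s : G), P.subset s.2⟩ : P.N)⁻¹ * n)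
      rw [QuotientGroup.mk_mul, QuotientGroup.mk_inv] at this
      change _ ∈ cell P ((sref P s)⁻¹ * n) at this
      rwa [sref_inv] at this
    have h2 := mul_mem_cell_of_le s (by rwa [invol_gen.cancel_left]) h₀ h1
    rw [invol_gen.cancel_left] at h2
    refine ⟨b₀ * b₁⁻¹, P.B.mul_mem hb₀ (P.B.inv_mem hb₁), ?_⟩
    convert mul_mem_cell_right h2 hb₂ using 1
    group

theorem len_sref_mul_ne (s : P.S) (w : Weyl P) :
    len (sref P) (sref P s * w) ≠ len (sref P) w := by
  intro h
  obtain ⟨g, hg⟩ := cell_nonempty w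
  obtain ⟨b, hb, h1⟩ := exists_mul_mem_cell_of_le s h.le hg
  have h2 := mul_mem_cell_of_le s h.ge (mul_mem_cell_right (sref_mem_cell s) hb) hg
  apply sref_ne_one s
  simpa using eq_of_mem_cell h2 h1

theorem exchange_step (s t : P.S) {u : Weyl P}
    (h1 : len (sref P) u ≤ len (sref P) (sref P s * u))
    (h2 : len (sref P) (sref P s * (u * sref P t)) ≤ len (sref P) (u * sref P t)) :
    sref P s * u = u * sref P t := by
  induction u using QuotientGroup.induction_on with
  | H n =>
    have h3 : (n : G) * t ∈ cell P ((n : Weyl P) * sref P t) :=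
      self_mem_cell (n * (⟨(t : G), P.subset t.2⟩ : P.N))
    obtain ⟨b, hb, h4⟩ := exists_mul_mem_cell_of_le s h2 h3
    have h5 : (t : G)⁻¹ ∈ cell P (sref P t) := by
      have := inv_mem_cell (sref_mem_cell t)
      rwa [sref_inv] at this
    have h6 := mul_mem_cell_or' t h4 h5
    rw [← mul_assoc, mul_inv_cancel_right, invol_gen.cancel_right] at h6
    have h7 := mul_mem_cell_of_le s h1 (mul_mem_cell_right (sref_mem_cell s) hb) (self_mem_cell n)
    rcases h6 with h6 | h6
    · exfalso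
      apply sref_ne_one s
      simpa using eq_of_mem_cell h7 h6
    · exact eq_of_mem_cell h7 h6

/-- The exchange condition holds in the Weyl group of a (B,N)-pair. -/
theorem bn_exchange : Exchange (sref P) where
  toInvolGen := invol_gen
  exch := by
    intro s l
    induction l using List.reverseRecOn with
    | nil =>
      intro h
      have := len_sref_mul_ne s (1 : Weyl P)
      simp only [wprod_nil, len_one] at h this
      omega
    | append_singleton l t ih =>
      intro h
      by_cases hl : len (sref P) (sref P s * wprod (sref P) l) ≤ len (sref P) (wprod (sref P) l)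
      · obtain ⟨l₁, l₂, j, rfl, hj⟩ := ih hl
        exact ⟨l₁, l₂ ++ [t], j, by simp, hj⟩
      · refine ⟨l, [], t, rfl, exchange_step s t (by omega) ?_⟩
        simpa using h

theorem len_sref (s : P.S) : len (sref P) (sref P s) = 1 := by
  have h1 := len_simple_le (σ := sref P) s
  have h2 := len_sref_mul_ne s (1 : Weyl P)
  simp only [mul_one, len_one] at h2
  omega

/-- A subgroup containing `B` and a conjugate `n B n⁻¹` contains the letters of a reduced word of `n`. -/
theorem letters_mem_of_conj {M : Subgroup G} (hM : P.B ≤ M) (l : List P.S)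
    (hl : Reduced (sref P) l) (n : P.N) (hn : wprod (sref P) l = n)
    (hc : ∀ b ∈ P.B, (n : G) * b * (n : G)⁻¹ ∈ M) : ∀ s ∈ l, (s : G) ∈ M := by
  induction l generalizing n with
  | nil => simp
  | cons s l ih =>
    have hl' := invol_gen.reduced_of_cons hl
    have hs : (s : G) ∈ M := by
      have hle : len (sref P) (sref P s * (n : Weyl P)) ≤ len (sref P) (n : Weyl P) := by
        unfold Reduced at hl hl'
        rw [← hn, hl, wprod_cons, invol_gen.cancel_left, hl']
        simp
      obtain ⟨b, hb, h⟩ := exists_mul_mem_cell_of_le s hle (self_mem_cell n)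
      obtain ⟨b₁, hb₁, b₂, hb₂, h'⟩ := mem_cell_mk.1 h
      have : (s : G) = b₁ * ((n : G) * b₂ * (n : G)⁻¹) * b⁻¹ := by
        have e : (s : G) = ((s : G) * b * n) * (n : G)⁻¹ * b⁻¹ := by group
        rw [e, h']; group
      rw [this]
      exact M.mul_mem (M.mul_mem (hM hb₁) (hc b₂ hb₂)) (M.inv_mem (hM hb))
    intro t ht
    rcases List.mem_cons.1 ht with rfl | ht
    · exact hs
    · refine ih hl' ((⟨(s : G), P.subset s.2⟩ : P.N)⁻¹ * n) ?_ ?_ t ht
      · rw [QuotientGroup.mk_mul, QuotientGroup.mk_inv, ← hn, wprod_cons]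
        change _ = (sref P s)⁻¹ * _
        rw [inv_mul_cancel_left]
      · intro b hb
        have := M.mul_mem (M.mul_mem (M.inv_mem hs) (hc b hb)) hs
        convert this using 1
        simp only [Subgroup.coe_mul, Subgroup.coe_inv]
        group

theorem mem_of_letters_mem {M : Subgroup G} (hM : P.B ≤ M) (l : List P.S)
    (hl : ∀ s ∈ l, (s : G) ∈ M) {g : G} (hg : g ∈ cell P (wprod (sref P) l)) : g ∈ M := by
  induction l generalizing g with
  | nil => exact hM (mem_cell_one.1 hg)
  | cons s l ih =>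
    rw [wprod_cons] at hg
    obtain ⟨n, hn⟩ := QuotientGroup.mk_surjective (wprod (sref P) l)
    have h1 : (n : G) ∈ M := ih (fun t ht => hl t (List.mem_cons_of_mem _ ht))
      (by rw [← hn]; exact self_mem_cell n)
    have h2 : (s : G) * n ∈ cell P (sref P s * wprod (sref P) l) := by
      rw [← hn]
      exact self_mem_cell ((⟨(s : G), P.subset s.2⟩ : P.N) * n)
    exact cell_subset_subgroup hM h2 (M.mul_mem (hl s List.mem_cons_self) h1) hg

theorem mem_of_conj_mem {M : Subgroup G} (hM : P.B ≤ M) {n : G} (hn : n ∈ P.N)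
    (hc : ∀ b ∈ P.B, n * b * n⁻¹ ∈ M) : n ∈ M := by
  obtain ⟨l, hl, hl'⟩ := invol_gen.exists_reduced (((⟨n, hn⟩ : P.N)) : Weyl P)
  have hr : Reduced (sref P) l := by unfold Reduced; rw [hl', hl]
  apply mem_of_letters_mem hM l (letters_mem_of_conj hM l hr ⟨n, hn⟩ hl' hc)
  rw [hl']
  exact self_mem_cell (⟨n, hn⟩ : P.N)

theorem letters_mem_of_mem {M : Subgroup G} (hM : P.B ≤ M) (l : List P.S)
    (hl : Reduced (sref P) l) {g : G} (hg : g ∈ cell P (wprod (sref P) l)) (hgM : g ∈ M) :
    ∀ s ∈ l, (s : G) ∈ M := by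
  obtain ⟨n, hn⟩ := QuotientGroup.mk_surjective (wprod (sref P) l)
  have h1 : (n : G) ∈ M := cell_subset_subgroup hM hg hgM (by rw [← hn]; exact self_mem_cell n)
  exact letters_mem_of_conj hM l hl n hn.symm
    (fun b hb => M.mul_mem (M.mul_mem h1 (hM hb)) (M.inv_mem h1))

theorem word_mul_mem_cells (J : Set G) (l : List P.S) (hl : ∀ s ∈ l, (s : G) ∈ J) {x g : G}
    (hx : x ∈ cell P (wprod (sref P) l))
    (hg : ∃ l' : List P.S, (∀ s ∈ l', (s : G) ∈ J) ∧ g ∈ cell P (wprod (sref P) l')) :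
    ∃ l' : List P.S, (∀ s ∈ l', (s : G) ∈ J) ∧ x * g ∈ cell P (wprod (sref P) l') := by
  induction l generalizing x with
  | nil =>
    obtain ⟨l', hl', hg⟩ := hg
    exact ⟨l', hl', mul_mem_cell_left (mem_cell_one.1 hx) hg⟩
  | cons s l ih =>
    rw [wprod_cons] at hx
    obtain ⟨n, hn⟩ := QuotientGroup.mk_surjective (wprod (sref P) l)
    have h2 : (s : G) * n ∈ cell P (sref P s * wprod (sref P) l) := by
      rw [← hn]
      exact self_mem_cell ((⟨(s : G), P.subset s.2⟩ : P.N) * n)
    obtain ⟨b, hb, b', hb', rfl⟩ := cell_rel h2 hx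
    obtain ⟨l', hl', h3⟩ := ih (fun t ht => hl t (List.mem_cons_of_mem _ ht)) (x := n * b')
      (mul_mem_cell_right (by rw [← hn]; exact self_mem_cell n) hb')
    have e : b * ((s : G) * n) * b' * g = (b * s) * (n * b' * g) := by group
    rw [e]
    rcases mul_mem_cell_or s (mul_mem_cell_left hb (sref_mem_cell s)) h3 with h | h
    · refine ⟨s :: l', ?_, by rwa [wprod_cons]⟩
      intro t ht
      rcases List.mem_cons.1 ht with rfl | ht
      exacts [hl _ List.mem_cons_self, hl' t ht]
    · exact ⟨l', hl', h⟩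

/-- The union of the cells of words with letters in `J`. -/
def cellSubgroup (P : BNPair G) (J : Set G) : Subgroup G where
  carrier := {g | ∃ l : List P.S, (∀ s ∈ l, (s : G) ∈ J) ∧ g ∈ cell P (wprod (sref P) l)}
  one_mem' := ⟨[], by simp, mem_cell_one.2 P.B.one_mem⟩
  mul_mem' := by
    rintro a b ⟨l, hl, ha⟩ hb
    exact word_mul_mem_cells J l hl ha hb
  inv_mem' := by
    rintro a ⟨l, hl, ha⟩
    refine ⟨l.reverse, fun s hs => hl s (List.mem_reverse.1 hs), ?_⟩
    rw [wprod_reverse_sref]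
    exact inv_mem_cell ha

theorem le_parabolic (J : Set G) : P.B ≤ P.parabolic J := le_sup_left

theorem subset_parabolic (J : Set G) : J ⊆ P.parabolic J := fun _ hs =>
  (le_sup_right : Subgroup.closure J ≤ P.parabolic J) (Subgroup.subset_closure hs)

theorem mem_parabolic_iff {J : Set G} (hJ : J ⊆ P.S) {g : G} :
    g ∈ P.parabolic J ↔
      ∃ l : List P.S, (∀ s ∈ l, (s : G) ∈ J) ∧ g ∈ cell P (wprod (sref P) l) := by
  constructor
  · intro hg
    have : P.parabolic J ≤ cellSubgroup P J := by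
      refine sup_le ?_ ?_
      · intro b hb
        exact ⟨[], by simp, mem_cell_one.2 hb⟩
      · rw [Subgroup.closure_le]
        intro s hs
        refine ⟨[⟨s, hJ hs⟩], by simpa using hs, ?_⟩
        simpa using sref_mem_cell (⟨s, hJ hs⟩ : P.S)
    exact this hg
  · rintro ⟨l, hl, hg⟩
    exact mem_of_letters_mem (le_parabolic J) l (fun s hs => subset_parabolic J (hl s hs)) hg

theorem parabolic_univ : P.parabolic P.S = ⊤ := by
  rw [eq_top_iff, ← P.sup_eq_top]
  refine sup_le (le_parabolic _) ?_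
  conv_lhs => rw [← P.closure_sup]
  exact sup_le le_sup_right (inf_le_left.trans le_sup_left)

/-- Existence in the Bruhat decomposition. -/
theorem exists_mem_cell (g : G) : ∃ w : Weyl P, g ∈ cell P w := by
  have : g ∈ P.parabolic P.S := by rw [parabolic_univ]; trivial
  obtain ⟨l, _, hl⟩ := (mem_parabolic_iff subset_rfl).1 this
  exact ⟨_, hl⟩

theorem exists_bruhat (g : G) : ∃ n ∈ P.N, ∃ b ∈ P.B, ∃ b' ∈ P.B, g = b * n * b' := by
  obtain ⟨w, n, _, h⟩ := exists_mem_cell (P := P) g
  exact ⟨n, n.2, h⟩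

theorem mem_of_mem_parabolic {J : Set G} (hJ : J ⊆ P.S) {s : G} (hs : s ∈ P.S)
    (h : s ∈ P.parabolic J) : s ∈ J := by
  obtain ⟨l, hl, h1⟩ := (mem_parabolic_iff hJ).1 h
  have h2 := eq_of_mem_cell h1 (sref_mem_cell ⟨s, hs⟩)
  obtain ⟨l', hsub, hred, hprod⟩ := bn_exchange.exists_reduced_sublist l
  unfold Reduced at hred
  rw [hprod, h2, len_sref] at hred
  obtain ⟨t, rfl⟩ := List.length_eq_one_iff.1 hred.symm
  rw [h2] at hprod
  have h3 : t = ⟨s, hs⟩ := sref_injective (by simpa using hprod)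
  have := hl t (hsub.subset List.mem_cons_self)
  rwa [h3] at this

theorem eq_parabolic_of_le {M : Subgroup G} (hM : P.B ≤ M) :
    M = P.parabolic (P.S ∩ M) := by
  apply le_antisymm
  · intro g hg
    obtain ⟨w, hw⟩ := exists_mem_cell (P := P) g
    obtain ⟨l, hl, hl'⟩ := invol_gen.exists_reduced w
    have hr : Reduced (sref P) l := by unfold Reduced; rw [hl', hl]
    rw [← hl'] at hw
    rw [mem_parabolic_iff Set.inter_subset_left]
    exact ⟨l, fun s hs => ⟨s.2, letters_mem_of_mem hM l hr hw hg s hs⟩, hw⟩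
  · refine sup_le hM ?_
    rw [Subgroup.closure_le]
    exact Set.inter_subset_right

theorem inter_parabolic {J : Set G} (hJ : J ⊆ P.S) : P.S ∩ P.parabolic J = J := by
  ext s
  exact ⟨fun h => mem_of_mem_parabolic hJ h.1 h.2, fun h => ⟨hJ h, subset_parabolic J h⟩⟩

/-- If a conjugate of an overgroup of `B` lies in another overgroup `M'` of `B`, the conjugating element lies
in `M'`. -/
theorem mem_of_conj_le {M M' : Subgroup G} (hM : P.B ≤ M) (hM' : P.B ≤ M') {g : G}
    (h : ∀ x ∈ M, g * x * g⁻¹ ∈ M') : g ∈ M' := by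
  obtain ⟨n, hn, b, hb, b', hb', rfl⟩ := exists_bruhat (P := P) g
  have : n ∈ M' := by
    apply mem_of_conj_mem hM' hn
    intro c hc
    have h1 := h (b'⁻¹ * c * b') (hM (P.B.mul_mem (P.B.mul_mem (P.B.inv_mem hb') hc) hb'))
    have h2 := M'.mul_mem (M'.mul_mem (M'.inv_mem (hM' hb)) h1) (hM' hb)
    convert h2 using 1
    group
  exact M'.mul_mem (M'.mul_mem (hM' hb) this) (hM' hb')

end Cfsg.Agent.H1
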