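import Cfsg.Agent.H2.F23d
import Cfsg.Agent.H1.F23Comb

/-!
# Rational representations of degree twenty-three: the dichotomy for short vectors
-/

set_option autoImplicit false

namespace Cfsg.Agent.H2.F23

open Module

namespace Dich

/-- The representative in `0, …, 11` of `±i` modulo `23`. -/
def fold (i : ℕ) : ℕ := if i % 23 ≤ 11 then i % 23 else 23 - i % 23

theorem shape (n : ℕ → ℕ) (hb : ∀ i, 1 ≤ i → i ≤ 11 → 1 ≤ n i ∧ n i ≤ 3)
    (hf : ∀ i, n i = n (fold i))
    (hs : n 1 + n 2 + n 3 + n 4 + n 5 + n 6 + n 7 + n 8 + n 9 + n 10 + n 11 ≤ 23)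
    (key : ∀ j, 1 ≤ j → j ≤ 11 → 48 * n (j * 1) + 44 * n (j * 2) + 34 * n (j * 3) +
      24 * n (j * 4) + 10 * n (j * 5) ≤ 4 + 3 * n (j * 6) + 17 * n (j * 7) + 29 * n (j * 8) +
      39 * n (j * 9) + 46 * n (j * 10) + 50 * n (j * 11)) :
    (∀ i, 1 ≤ i → i ≤ 11 → n i = 1) ∨ (∀ i, 1 ≤ i → i ≤ 11 → n i = 2) ∨
      ∃ a, 1 ≤ a ∧ a ≤ 11 ∧ n a ≠ 2 ∧ ∀ i, 1 ≤ i → i ≤ 11 → i ≠ a → n i = 2 := by
  have key' : ∀ j, 1 ≤ j → j ≤ 11 → 48 * n (fold (j * 1)) + 44 * n (fold (j * 2)) +
      34 * n (fold (j * 3)) + 24 * n (fold (j * 4)) + 10 * n (fold (j * 5)) ≤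
      4 + 3 * n (fold (j * 6)) + 17 * n (fold (j * 7)) + 29 * n (fold (j * 8)) +
      39 * n (fold (j * 9)) + 46 * n (fold (j * 10)) + 50 * n (fold (j * 11)) := fun j a b => by
    simp only [← hf]
    exact key j a b
  rcases comb n hb hs (key' 1 (by norm_num) (by norm_num)) (key' 2 (by norm_num) (by norm_num))
    (key' 3 (by norm_num) (by norm_num)) (key' 4 (by norm_num) (by norm_num))
    (key' 5 (by norm_num) (by norm_num)) (key' 6 (by norm_num) (by norm_num))
    (key' 7 (by norm_num) (by norm_num)) (key' 8 (by norm_num) (by norm_num))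
    (key' 9 (by norm_num) (by norm_num)) (key' 10 (by norm_num) (by norm_num))
    (key' 11 (by norm_num) (by norm_num)) with e | e
  · left
    have b1 := (hb 1 (by norm_num) (by norm_num)).1
    have b2 := (hb 2 (by norm_num) (by norm_num)).1
    have b3 := (hb 3 (by norm_num) (by norm_num)).1
    have b4 := (hb 4 (by norm_num) (by norm_num)).1
    have b5 := (hb 5 (by norm_num) (by norm_num)).1
    have b6 := (hb 6 (by norm_num) (by norm_num)).1
    have b7 := (hb 7 (by norm_num) (by norm_num)).1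
    have b8 := (hb 8 (by norm_num) (by norm_num)).1
    have b9 := (hb 9 (by norm_num) (by norm_num)).1
    have b10 := (hb 10 (by norm_num) (by norm_num)).1
    have b11 := (hb 11 (by norm_num) (by norm_num)).1
    intro i i1 i2
    interval_cases i <;> omega
  · right
    let t : ℕ → ℕ := fun i => n i * n i + 4 - 4 * n i
    have ht : ∀ i, t i + 4 * n i = n i * n i + 4 := fun i =>
      Nat.sub_add_cancel (by nlinarith [sq_nonneg ((n i : ℤ) - 2)])
    have ht2 : ∀ i, 1 ≤ i → i ≤ 11 → n i ≠ 2 → 1 ≤ t i := fun i a b c => by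
      obtain ⟨h1, h3⟩ := hb i a b
      have := ht i
      generalize n i = m at *
      interval_cases m <;> omega
    have st : ∑ i ∈ Finset.Icc 1 11, t i ≤ 1 := by
      have := ht 1; have := ht 2; have := ht 3; have := ht 4; have := ht 5; have := ht 6
      have := ht 7; have := ht 8; have := ht 9; have := ht 10; have := ht 11
      have e2 : ∑ i ∈ Finset.Icc 1 11, t i =
          t 1 + t 2 + t 3 + t 4 + t 5 + t 6 + t 7 + t 8 + t 9 + t 10 + t 11 := by
        simp [Finset.sum_Icc_succ_top]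
      omega
    by_cases h2 : ∀ i, 1 ≤ i → i ≤ 11 → n i = 2
    · exact Or.inl h2
    · right
      push Not at h2
      obtain ⟨a, a1, a2, ha⟩ := h2
      refine ⟨a, a1, a2, ha, fun i i1 i2 ia => ?_⟩
      by_contra hi
      have := Finset.sum_le_sum_of_subset (f := t) (s := {i, a}) (t := Finset.Icc 1 11)
        (by intro u hu; simp only [Finset.mem_insert, Finset.mem_singleton] at hu
            rcases hu with rfl | rfl <;> simp [*])
      rw [Finset.sum_pair ia] at this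
      have := ht2 i i1 i2 hi
      have := ht2 a a1 a2 ha
      omega

/-- The test vector. -/
def zv : ℕ → ℚ := fun i =>
  [2, 2, 2, 1, 1, 0, 0, -1, -1, -2, -2, -2, -2, -2, -2, -1, -1, 0, 0, 1, 1, 2, 2].getD i 0

theorem quad (c : ℕ → ℚ) (hf : ∀ i, c i = c (fold i)) :
    ∑ i ∈ Finset.range 23, ∑ k ∈ Finset.range 23, zv i * zv k * c (k + 23 - i) =
      52 * c 0 + 2 * (48 * c 1 + 44 * c 2 + 34 * c 3 + 24 * c 4 + 10 * c 5 - 3 * c 6 - 17 * c 7 -
        29 * c 8 - 39 * c 9 - 46 * c 10 - 50 * c 11) := by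
  have : ∀ i k, zv i * zv k * c (k + 23 - i) = zv i * zv k * c (fold (k + 23 - i)) :=
    fun i k => by rw [← hf]
  rw [Finset.sum_congr rfl fun i _ => Finset.sum_congr rfl fun k _ => this i k]
  simp only [Finset.sum_range_succ, Finset.sum_range_zero, zv, fold, List.getD_cons_succ,
    List.getD_cons_zero]
  norm_num
  ring

theorem fold_mul : ∀ a < 12, 1 ≤ a → ∀ i < 12, 2 ≤ i →
    1 ≤ fold (a * i) ∧ fold (a * i) ≤ 11 ∧ fold (a * i) ≠ a := by
  intro a ha a1 i hi i1
  interval_cases a <;> interval_cases i <;> decide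

theorem tri_sum : ∀ k < 22, ∑ i ∈ Finset.range 23, ((22 - (i : ℚ)) / 23) *
    (if fold (k + 23 - i) = 0 then 2 else if fold (k + 23 - i) = 1 then -1 else 0) =
    if k = 0 then 1 else 0 := by decide +kernel

theorem fold_range : ∀ i < 23, 0 < i → 1 ≤ fold i ∧ fold i ≤ 11 := by decide +kernel

theorem exists_mul : ∀ a < 23, 0 < a → ∀ i < 23, 0 < i → ∃ j < 23, 0 < j ∧ a * j % 23 = i := by
  decide +kernel

end Dich

open Dich

variable {V : Type*} [AddCommGroup V] [Module ℚ V] {G : Type*} [Group G]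

namespace Lat

variable {ρ : Representation ℚ G V} {B : LinearMap.BilinForm ℚ V} {L : Submodule ℤ V}
  {x : G} {w : V} {d : ℕ} (h : Lat ρ B L x w d)
include h

theorem dich_pow {a : ℕ} (a0 : 0 < a) (a1 : a < 23) : Lat ρ B L (x ^ a) w d :=
  { h with
    x23 := by rw [← pow_mul, mul_comm, pow_mul, h.x23, one_pow]
    xw := h.xiw a
    fixw := fun _ hy => h.fix_pow a0 a1 hy }

theorem dich_mod (i : ℕ) : x ^ i = x ^ (i % 23) := by
  conv_lhs => rw [← Nat.div_add_mod i 23, pow_add, pow_mul, h.x23, one_pow, one_mul]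

theorem dich_fold (y : V) (i : ℕ) : B y (ρ (x ^ i) y) = B y (ρ (x ^ fold i) y) := by
  rw [h.dich_mod i, fold]
  split_ifs
  · rfl
  · exact (h.sym y _ (Nat.mod_lt _ (by norm_num)).le).symm

theorem dich_B (y z : V) {i : ℕ} (k : ℕ) (hi : i ≤ 23) :
    B (ρ (x ^ i) y) (ρ (x ^ k) z) = B y (ρ (x ^ (k + 23 - i)) z) := by
  rw [← h.inv (x ^ i) y, ← Module.End.mul_apply, ← map_mul, ← pow_add,
    show i + (k + 23 - i) = k + 23 by omega, pow_add, h.x23, mul_one]

theorem dich_quad (y : V) : 0 ≤ 52 * B y y + 2 * (48 * B y (ρ (x ^ 1) y) + 44 * B y (ρ (x ^ 2) y) +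
    34 * B y (ρ (x ^ 3) y) + 24 * B y (ρ (x ^ 4) y) + 10 * B y (ρ (x ^ 5) y) -
    3 * B y (ρ (x ^ 6) y) - 17 * B y (ρ (x ^ 7) y) - 29 * B y (ρ (x ^ 8) y) -
    39 * B y (ρ (x ^ 9) y) - 46 * B y (ρ (x ^ 10) y) - 50 * B y (ρ (x ^ 11) y)) := by
  have e := h.toRep.nonneg (∑ i ∈ Finset.range 23, zv i • ρ (x ^ i) y)
  have q := quad (fun i => B y (ρ (x ^ i) y)) (h.dich_fold y)
  simp only [pow_zero, map_one, Module.End.one_apply] at q
  rw [← q]
  convert e using 1
  rw [LinearMap.map_sum₂]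
  refine Finset.sum_congr rfl fun i hi => ?_
  rw [map_sum]
  refine Finset.sum_congr rfl fun k _ => ?_
  rw [LinearMap.map_smul₂, map_smul, h.dich_B y y k (Finset.mem_range.mp hi).le, smul_eq_mul,
    smul_eq_mul, mul_assoc]

theorem dich_cls {y : V} (hy : PP B L w y) (y0 : y ≠ 0) (m2 : B y y ≤ 2) :
    ∃ n : ℕ → ℕ, (∀ i, B y (ρ (x ^ i) y) = B y y - n i) ∧
      23 * B y y = 2 * ∑ i ∈ Finset.Icc 1 11, (n i : ℚ) ∧
      (∀ i, 1 ≤ i → i ≤ 11 → 1 ≤ n i ∧ n i ≤ 3) ∧
      ((∀ i, 1 ≤ i → i ≤ 11 → n i = 1) ∨ (∀ i, 1 ≤ i → i ≤ 11 → n i = 2) ∨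
      ∃ a, 1 ≤ a ∧ a ≤ 11 ∧ n a ≠ 2 ∧ ∀ i, 1 ≤ i → i ≤ 11 → i ≠ a → n i = 2) := by
  have ex : ∀ i, ∃ n : ℕ, B y (ρ (x ^ i) y) = B y y - n := fun i => by
    obtain ⟨k, hk⟩ := h.PP_n hy i
    have := h.toRep.nonneg (y - ρ (x ^ i) y)
    simp only [map_sub, LinearMap.sub_apply, h.inv, h.symm (ρ (x ^ i) y) y] at this
    have k0 : 0 ≤ k := by
      have : (0 : ℚ) ≤ k := by linarith
      exact_mod_cast this
    obtain ⟨n, rfl⟩ := Int.eq_ofNat_of_zero_le k0
    exact ⟨n, by rw [Int.cast_natCast] at hk; linarith⟩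
  choose n hn using ex
  have hs : 23 * B y y = 2 * ((n 1 : ℚ) + n 2 + n 3 + n 4 + n 5 + n 6 + n 7 + n 8 + n 9 + n 10 +
      n 11) := by
    rw [h.norm_eq hy.1]
    simp only [hn, sub_sub_cancel, Finset.sum_range_succ, Finset.sum_range_zero, zero_add,
      Nat.reduceAdd]
  have hb : ∀ i, 1 ≤ i → i ≤ 11 → 1 ≤ n i ∧ n i ≤ 3 := fun i i1 i2 => by
    have p1 := h.n_pos hy.1 y0 (i := i) (by omega) (by omega)
    have p2 := h.pos (y + ρ (x ^ i) y) fun e => y0 (h.eq_zero_of_fix hy.1 (i := i + i) (by omega)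
      (by omega) (by
        have e' : ρ (x ^ i) y = -y := eq_neg_of_add_eq_zero_right e
        rw [pow_add, map_mul, Module.End.mul_apply, e', map_neg, e', neg_neg]))
    simp only [map_add, LinearMap.add_apply, h.inv, h.symm (ρ (x ^ i) y) y] at p2
    rw [hn] at p1 p2
    have q1 : (0 : ℚ) < n i := by linarith
    have q2 : (n i : ℚ) < 4 := by linarith
    have q1' : 0 < n i := by exact_mod_cast q1
    have q2' : n i < 4 := by exact_mod_cast q2
    omega
  refine ⟨n, hn, by rw [hs]; simp [Finset.sum_Icc_succ_top], hb, shape n hb (fun i => ?_) ?_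
    fun j j1 j2 => ?_⟩
  · have := h.dich_fold y i
    rw [hn, hn] at this
    exact_mod_cast sub_right_injective this
  · have : (n 1 : ℚ) + n 2 + n 3 + n 4 + n 5 + n 6 + n 7 + n 8 + n 9 + n 10 + n 11 ≤ 23 := by
      linarith
    exact_mod_cast this
  · have := (h.dich_pow (a := j) (by omega) (by omega)).dich_quad y
    simp only [← pow_mul, hn] at this
    have e : (48 : ℚ) * n (j * 1) + 44 * n (j * 2) + 34 * n (j * 3) +
      24 * n (j * 4) + 10 * n (j * 5) ≤ 4 + 3 * n (j * 6) + 17 * n (j * 7) + 29 * n (j * 8) +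
      39 * n (j * 9) + 46 * n (j * 10) + 50 * n (j * 11) := by linarith
    exact_mod_cast e

theorem dich_caseA_pow {a : ℕ} (a0 : 0 < a) (a1 : a < 23) (hA : CaseA ρ B L (x ^ a) w) :
    CaseA ρ B L x w := by
  obtain ⟨y, hy, e⟩ := hA
  refine ⟨y, hy, fun i i0 i1 => ?_⟩
  obtain ⟨j, j1, j0, hj⟩ := exists_mul a a1 a0 i i1 i0
  rw [← hj, ← h.dich_mod, pow_mul]
  exact e j j0 j1

theorem dich_frame {u : V} (u0 : B u w = 0) (uu : B u u = 22 / 23)
    (hu : ∀ i, 0 < i → i < 23 → B u (ρ (x ^ i) u) = -1 / 23) {z : V} (z0 : B z w = 0) :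
    B z z = ∑ i ∈ Finset.range 23, B z (ρ (x ^ i) u) ^ 2 := by
  have := h.fin
  have su : ∑ i ∈ Finset.range 23, ρ (x ^ i) u = 0 := by rw [h.sumX, u0, mul_zero, zero_smul]
  have sz : ∑ i ∈ Finset.range 23, B z (ρ (x ^ i) u) = 0 := by rw [← map_sum, su, map_zero]
  have g : ∀ i < 23, ∀ k < 23, B (ρ (x ^ i) u) (ρ (x ^ k) u) =
      (if i = k then 1 else 0) - 1 / 23 := fun i hi k hk => by
    rw [h.dich_B u u k hi.le, h.dich_mod]
    split_ifs with e
    · rw [e, show (k + 23 - k) % 23 = 0 by omega, pow_zero, map_one, Module.End.one_apply, uu]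
      norm_num
    · rw [hu _ (by omega) (by omega)]
      norm_num
  let W : Submodule ℚ V := LinearMap.ker (B w) ⊓ ⨅ k : ℕ, LinearMap.ker (B (ρ (x ^ k) u))
  have mW : ∀ v, v ∈ W ↔ B w v = 0 ∧ ∀ k, B (ρ (x ^ k) u) v = 0 := fun v => by
    simp only [W, Submodule.mem_inf, Submodule.mem_iInf, LinearMap.mem_ker]
  have Wb : ∀ v ∈ W, v = 0 := fun v hv => by
    by_contra v0
    have d1 := dim_ge (ρ x) W (fun a ha => by
      rw [mW] at ha ⊢
      refine ⟨by rw [← h.xw, h.inv, ha.1], fun k => ?_⟩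
      have e : x ^ k = x * x ^ (k + 22) := by
        rw [← pow_succ', add_assoc, pow_add, h.x23, mul_one]
      rw [e, map_mul, Module.End.mul_apply, h.inv, ha.2]) hv v0 (by
      simp only [← map_pow]
      rw [h.sumX, h.symm, ((mW v).mp hv).1, mul_zero, zero_smul])
    have d2 : finrank ℚ (LinearMap.ker (B w)) < finrank ℚ V := Submodule.finrank_lt fun e => by
      have : w ∈ LinearMap.ker (B w) := e ▸ trivial
      exact (h.pos w h.w0).ne' this
    rw [h.dim] at d2
    have e : W = LinearMap.ker (B w) := Submodule.eq_of_le_of_finrank_le inf_le_left (by omega)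
    have : u ∈ W := by rw [e, LinearMap.mem_ker, h.symm, u0]
    have := ((mW u).mp this).2 0
    rw [pow_zero, map_one, Module.End.one_apply, uu] at this
    norm_num at this
  have ez := sub_eq_zero.mp (Wb (z - ∑ i ∈ Finset.range 23, B z (ρ (x ^ i) u) • ρ (x ^ i) u)
    ((mW _).mpr ⟨?_, fun k => ?_⟩))
  · conv_lhs => arg 2; rw [ez]
    simp only [map_sum, map_smul, smul_eq_mul, sq]
  · simp only [map_sub, map_sum, map_smul, smul_eq_mul]
    simp only [h.symm w, h.B_xi_w, u0, z0, mul_zero, Finset.sum_const_zero, sub_zero]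
  · rw [h.dich_mod k]
    have hk : k % 23 < 23 := Nat.mod_lt _ (by norm_num)
    generalize k % 23 = k at hk
    rw [map_sub, map_sum, Finset.sum_congr rfl fun i hi => by
      rw [map_smul, g k hk i (Finset.mem_range.mp hi), smul_eq_mul, mul_sub]]
    rw [Finset.sum_sub_distrib, ← Finset.sum_mul, sz]
    simp [hk, h.symm z]

theorem dich_three {y : V} (hy : PP B L w y) (h0 : B y y = 2) (h1 : B y (ρ (x ^ 1) y) = -1)
    (h2 : ∀ i, 2 ≤ i → i ≤ 11 → B y (ρ (x ^ i) y) = 0) : CaseA ρ B L x w := by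
  let u : V := ∑ i ∈ Finset.range 23, ((22 - i : ℚ) / 23) • ρ (x ^ i) y
  have sy : ∑ i ∈ Finset.range 23, ρ (x ^ i) y = 0 := by rw [h.sumX, hy.1, mul_zero, zero_smul]
  have u0 : B u w = 0 := by
    simp only [u, LinearMap.map_sum₂, LinearMap.map_smul₂, h.B_xi_w, hy.1, smul_zero,
      Finset.sum_const_zero]
  have du : u - ρ x u = y := by
    have e1 : ρ x u = ∑ i ∈ Finset.range 23, ((23 - i : ℚ) / 23) • ρ (x ^ i) y - y := by
      rw [Finset.sum_range_succ', map_sum, Finset.sum_range_succ]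
      simp only [map_smul, ← Module.End.mul_apply, ← map_mul, ← pow_succ']
      push_cast
      simp only [sub_self, zero_div, zero_smul, add_zero, pow_zero, map_one, sub_zero,
        Module.End.one_apply]
      rw [div_self (by norm_num), one_smul, add_sub_cancel_right]
      refine Finset.sum_congr rfl fun i _ => ?_
      congr 1
      ring
    have e2 : ∑ i ∈ Finset.range 23, ((23 - i : ℚ) / 23) • ρ (x ^ i) y =
        u + (1 / 23 : ℚ) • ∑ i ∈ Finset.range 23, ρ (x ^ i) y := by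
      rw [Finset.smul_sum, ← Finset.sum_add_distrib]
      refine Finset.sum_congr rfl fun i _ => ?_
      rw [← add_smul]
      congr 1
      ring
    rw [e1, e2, sy, smul_zero, add_zero, sub_sub_cancel]
  have dui : ∀ k, ρ (x ^ k) u - ρ (x ^ (k + 1)) u = ρ (x ^ k) y := fun k => by
    rw [pow_succ, map_mul, Module.End.mul_apply, ← map_sub, du]
  have c : ∀ i, B y (ρ (x ^ i) y) =
      if fold i = 0 then 2 else if fold i = 1 then -1 else 0 := fun i => by
    rw [h.dich_fold]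
    have : fold i ≤ 11 := by unfold fold; split_ifs <;> omega
    split_ifs with a b
    · rw [a, pow_zero, map_one, Module.End.one_apply, h0]
    · rw [b, h1]
    · exact h2 _ (by omega) this
  have uy : ∀ k < 22, B u (ρ (x ^ k) y) = if k = 0 then 1 else 0 := fun k hk => by
    rw [LinearMap.map_sum₂, Finset.sum_congr rfl fun i hi => by
      rw [LinearMap.map_smul₂, h.dich_B y y k (Finset.mem_range.mp hi).le, c, smul_eq_mul]]
    exact tri_sum k hk
  have g : ∀ k < 22, B u (ρ (x ^ (k + 1)) u) = B u u - 1 := fun k hk => by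
    induction k with
    | zero =>
      have := congrArg (B u) (dui 0)
      rw [map_sub, uy 0 hk, pow_zero, map_one, Module.End.one_apply] at this
      simp only [if_true] at this
      linarith
    | succ k ih =>
      have := congrArg (B u) (dui (k + 1))
      rw [map_sub, uy _ hk, ih (by omega), if_neg (by omega)] at this
      linarith
  have uu : B u u = 22 / 23 := by
    have := h.norm_eq u0
    rw [Finset.sum_congr rfl fun i hi => by
      rw [g i (by have := Finset.mem_range.mp hi; omega), sub_sub_cancel]] at this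
    simp only [Finset.sum_const, Finset.card_range, nsmul_eq_mul] at this
    push_cast at this
    linarith
  have hu : ∀ i, 0 < i → i < 23 → B u (ρ (x ^ i) u) = -1 / 23 := fun i i0 i1 => by
    obtain ⟨k, rfl⟩ : ∃ k, i = k + 1 := ⟨i - 1, by omega⟩
    rw [g k (by omega), uu]
    norm_num
  refine ⟨u, ⟨u0, fun z hz z0 => ?_⟩, hu⟩
  have ex : ∀ i, ∃ m : ℤ, B z (ρ (x ^ i) u) = B u z + m := fun i => by
    induction i with
    | zero => exact ⟨0, by simp [h.symm z]⟩
    | succ i ih =>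
      obtain ⟨m, hm⟩ := ih
      obtain ⟨k, hk⟩ := (h.PP_x hy i).2 z hz z0
      have := congrArg (B z) (dui i)
      rw [map_sub, hm, h.symm z (ρ (x ^ i) y), hk] at this
      exact ⟨m - k, by push_cast; linarith⟩
  choose m hm using ex
  have fr := h.dich_frame u0 uu hu z0
  have s0 : ∑ i ∈ Finset.range 23, B z (ρ (x ^ i) u) = 0 := by
    rw [← map_sum, h.sumX, u0, mul_zero, zero_smul, map_zero]
  obtain ⟨N, hN⟩ := h.int z hz z hz
  simp only [hm, Finset.sum_add_distrib, Finset.sum_const, Finset.card_range, nsmul_eq_mul,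
    add_sq, ← Finset.mul_sum] at fr s0
  obtain ⟨M, hM⟩ : ∃ M : ℤ, ∑ i ∈ Finset.range 23, (m i : ℚ) = M :=
    ⟨∑ i ∈ Finset.range 23, m i, by push_cast; rfl⟩
  obtain ⟨Q, hQ⟩ : ∃ Q : ℤ, ∑ i ∈ Finset.range 23, (m i : ℚ) ^ 2 = Q :=
    ⟨∑ i ∈ Finset.range 23, m i ^ 2, by push_cast; rfl⟩
  rw [hM] at fr s0
  rw [hQ, hN] at fr
  push_cast at fr s0
  have e1 : B u z = -M / 23 := by linarith
  have e2 : (M : ℚ) ^ 2 = 23 * (Q - N) := by
    rw [e1] at fr
    linarith
  have e3 : M ^ 2 = 23 * (Q - N) := by exact_mod_cast e2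
  obtain ⟨r, hr⟩ := Int.Prime.dvd_pow' (p := 23) (by norm_num) (Dvd.intro _ e3.symm)
  exact ⟨-r, by rw [e1, hr]; push_cast; ring⟩

theorem dich_two {y : V} (hy : PP B L w y) (h0 : B y y = 2) : CaseA ρ B L x w := by
  obtain ⟨n, hn, hs, hb, hc⟩ := h.dich_cls hy (by rintro rfl; simp at h0) h0.le
  have hs' : ∑ i ∈ Finset.Icc 1 11, n i = 23 := by
    have : ∑ i ∈ Finset.Icc 1 11, (n i : ℚ) = 23 := by linarith
    exact_mod_cast this
  rcases hc with hc | hc | ⟨a, a1, a2, ha, hc⟩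
  · rw [Finset.sum_congr rfl fun i hi => hc i (Finset.mem_Icc.mp hi).1 (Finset.mem_Icc.mp hi).2]
      at hs'
    simp at hs'
  · rw [Finset.sum_congr rfl fun i hi => hc i (Finset.mem_Icc.mp hi).1 (Finset.mem_Icc.mp hi).2]
      at hs'
    simp at hs'
  · have ma : a ∈ Finset.Icc 1 11 := Finset.mem_Icc.mpr ⟨a1, a2⟩
    rw [← Finset.add_sum_erase _ _ ma, Finset.sum_congr rfl fun i hi =>
      hc i (Finset.mem_Icc.mp (Finset.mem_of_mem_erase hi)).1
        (Finset.mem_Icc.mp (Finset.mem_of_mem_erase hi)).2 (Finset.ne_of_mem_erase hi),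
      Finset.sum_const, Finset.card_erase_of_mem ma] at hs'
    have n3 : n a = 3 := by simpa using hs'
    refine h.dich_caseA_pow (a := a) (by omega) (by omega)
      ((h.dich_pow (by omega) (by omega)).dich_three hy h0 ?_ fun i i1 i2 => ?_)
    · rw [pow_one, hn, n3, h0]
      norm_num
    · obtain ⟨f1, f2, f3⟩ := fold_mul a (by omega) a1 i (by omega) i1
      rw [← pow_mul, h.dich_fold, hn, hc _ f1 f2 f3, h0]
      norm_num

theorem dich : CaseA ρ B L x w ∨ NonA B L w := by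
  by_cases hA : CaseA ρ B L x w
  · exact Or.inl hA
  refine Or.inr fun y hy y0 m2 => ?_
  obtain ⟨n, hn, hs, hb, hc⟩ := h.dich_cls hy y0 m2
  rcases hc with hc | hc | ⟨a, a1, a2, ha, hc⟩
  · rw [Finset.sum_congr rfl fun i hi => by
      rw [hc i (Finset.mem_Icc.mp hi).1 (Finset.mem_Icc.mp hi).2]] at hs
    norm_num at hs
    refine absurd ⟨y, hy, fun i i0 i1 => ?_⟩ hA
    obtain ⟨f1, f2⟩ := fold_range i i1 i0
    rw [h.dich_fold, hn, hc _ f1 f2]
    push_cast
    linarith
  · rw [Finset.sum_congr rfl fun i hi => by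
      rw [hc i (Finset.mem_Icc.mp hi).1 (Finset.mem_Icc.mp hi).2]] at hs
    norm_num at hs
    linarith
  · exfalso
    obtain ⟨b1, b3⟩ := hb a a1 a2
    by_cases n1 : n a = 1
    · refine hA (h.dich_two (h.PP_of_mem (h.PP_sub hy a) (h.PP_sub0 a)) ?_)
      simp only [map_sub, LinearMap.sub_apply, h.inv, h.symm (ρ (x ^ a) y) y, hn, n1]
      push_cast
      ring
    · have n3 : n a = 3 := by omega
      have ma : a ∈ Finset.Icc 1 11 := Finset.mem_Icc.mpr ⟨a1, a2⟩
      rw [← Finset.add_sum_erase _ _ ma, Finset.sum_congr rfl fun i hi => by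
        rw [hc i (Finset.mem_Icc.mp (Finset.mem_of_mem_erase hi)).1
          (Finset.mem_Icc.mp (Finset.mem_of_mem_erase hi)).2 (Finset.ne_of_mem_erase hi)],
        Finset.sum_const, Finset.card_erase_of_mem ma, n3] at hs
      norm_num at hs
      exact hA (h.dich_two hy (by linarith))

end Lat

end Cfsg.Agent.H2.F23
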